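import Cfsg.Agent.KKL.AltM
import Cfsg.Agent.R16.Diag
import Cfsg.Agent.R16.EvA

/-!
Blocks with elementary abelian defect group of order 8 and one class of involutions.
-/

set_option autoImplicit false

open Cfsg Cfsg.Lib Cfsg.Lib.Char Cfsg.Lib.Block Cfsg.Lib.Block.Star

namespace Cfsg.Lib.KKL

universe u

variable {M : Ideal AlgInt} {S : Type u} [Group S]

open Classical in
theorem alt (c : BD 2 M S) (h8 : Nat.card S = 8) (hsq : ∀ u : S, u * u = 1) {u : S} (hu : u ≠ 1)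
    (ht : ∀ v, v ≠ 1 → c.ef u v) (hr : c.rk u = 1 ∨ c.rk u = 3)
    (hc : c.rk u * ((irrFin c.B).filter fun χ : IrrCharacter c.G =>
        blockHeight 2 c.B (χ : c.G → ℂ) = 0).card +
      4 * ((irrFin c.B).filter fun χ : IrrCharacter c.G =>
        ¬ blockHeight 2 c.B (χ : c.G → ℂ) = 0).card = 8 * c.rk u) :
    ∀ χ ∈ c.B, blockHeight 2 c.B (χ : c.G → ℂ) = 0 := by
  have := c.finite
  have := Fintype.ofFinite S
  have : Nontrivial S := ⟨u, 1, hu⟩
  have hi : ∀ x : S, x⁻¹ = x := fun x => inv_eq_of_mul_eq_one_right (hsq x)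
  have hz : u ∈ Subgroup.center S := Subgroup.mem_center_iff.2 fun g => by
    rw [← hi (g * u), mul_inv_rev, hi, hi]
  obtain ⟨N, hN, hod, hpos⟩ := R16.diag c hsq u
  obtain ⟨N', hN', -, hpos'⟩ := R16.diag c hsq 1
  simp only [h8, Nat.cast_ofNat] at hN hN'
  have h2 : (1 : S → ℂ) = c.dlt 1 + c.dlt u := funext fun x => by
    by_cases hx : x = 1
    · subst hx
      have : ¬ c.ef u 1 := fun h => hu h.symm.eq_one
      simp [BD.dlt, c.ef_refl, this]
    · have : ¬ c.ef 1 x := fun h => hx h.eq_one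
      simp [BD.dlt, ht x hx, this]
  intro χ hχ
  refine AltM.pure (s := irrFin c.B) (N := N) (fun χ : IrrCharacter c.G =>
    blockHeight 2 c.B (χ : c.G → ℂ) = 0) (r := c.rk u) (fun χ ψ => ?_) (fun χ ψ => ?_)
    (fun a ha => ?_) (fun χ hχ ψ hψ => hod χ (mem_irrFin.1 hχ) ψ (mem_irrFin.1 hψ))
    (fun χ hχ => (hpos χ (mem_irrFin.1 hχ)).1) (fun χ hχ h0 => ?_) (fun χ hχ ψ hψ h0 h => ?_) ?_
    hr hc ?_ χ (mem_irrFin.2 hχ)
  · have h := congrArg (8 * ·) (BD.conj_mat (BD.st_dlt (b := c) u)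
      (fun v => by rw [BD.dlt]; split_ifs <;> simp) χ ψ)
    rw [hN, show (8 : ℂ) = starRingEnd ℂ 8 from (map_ofNat _ 8).symm, ← map_mul, hN,
      map_intCast] at h
    exact_mod_cast h
  · have h := congrArg (64 * ·) (BD.mat_mul (BD.st_dlt (b := c) u) (BD.st_dlt (b := c) u) χ ψ)
    rw [show c.dlt u * c.dlt u = c.dlt u from funext fun x => by
      simp only [BD.dlt, Pi.mul_apply]; split_ifs <;> simp] at h
    apply Int.cast_injective (α := ℂ)
    push_cast
    simp only [← hN]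
    simp only [Finset.mul_sum] at h
    rw [← mul_assoc, show (8 : ℂ) * 8 = 64 by norm_num, ← h]
    exact Finset.sum_congr rfl fun x _ => by ring
  · refine R16.evA c hsq a fun v hv ψ => ?_
    have e : c.dlt v = c.dlt u := funext fun y => by
      rw [BD.dlt, BD.dlt, propext ⟨(ht v hv).trans, fun h' : c.ef u y => (ht v hv).symm.trans h'⟩]
    have h := congrArg (Int.cast (R := ℂ)) (ha ψ)
    push_cast at h
    simp only [← hN, mul_left_comm _ (8 : ℂ), ← Finset.mul_sum] at h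
    rw [e]
    exact (mul_eq_zero.1 h).resolve_left (by norm_num)
  · have h := BD.mat_one (mem_irrFin.1 hχ) χ
    rw [h2, BD.mat_add, if_pos rfl] at h
    have h3 : N' χ χ + N χ χ = 8 := by
      apply Int.cast_injective (α := ℂ)
      push_cast
      rw [← hN, ← hN', ← mul_add, h, mul_one]
    have h4 := (hpos χ (mem_irrFin.1 hχ)).1
    have h5 := (hpos χ (mem_irrFin.1 hχ)).2 h0
    have h6 := (hpos' χ (mem_irrFin.1 hχ)).1
    omega
  · have h3 := hN χ ψ
    rw [h, Int.cast_zero, BD.mat_dl (l := c.dlt u) (u := u) (fun _ hv => if_pos hv) fun _ hv => if_neg hv] at h3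
    exact ctr_ne_zero_of_central c.hM c.max c.hB (mem_irrFin.1 hχ) (mem_irrFin.1 hψ) h0
      (v := c.eqv u) (c.le_cent hz) ((mul_eq_zero.1 h3).resolve_left (by norm_num))
  · have h := congrArg (8 * ·) (BD.mat_trace (BD.st_dlt (b := c) u))
    simp only [Finset.mul_sum, hN] at h
    rw [← Finset.mul_sum, BD.sum_dlt_wt] at h
    exact_mod_cast h
  · obtain ⟨ψ, hψ, hψ0⟩ := Ht.exists_blockHeight_eq_zero 2 (isPBlock_nonempty c.hM c.hB)
    exact ⟨ψ, mem_irrFin.2 hψ, hψ0⟩

end Cfsg.Lib.KKL
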