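import Cfsg.Agent.KKL.Fac
import Cfsg.Agent.OD4.Det

/-! Tower KKL: the discriminant of the symmetrizing form computed from the characters. -/

set_option autoImplicit false
set_option linter.unusedSectionVars false

open Cfsg Cfsg.Lib Cfsg.Lib.Char Matrix
open scoped Kronecker

namespace Cfsg.Lib.KKL

theorem Chr.indep {ι Y : Type*} [Fintype ι] [DecidableEq ι] {n : ι → ℕ}
    (e : (Σ i, Fin (n i) × Fin (n i)) → Y) (R R' : ∀ i, Y → Matrix (Fin (n i)) (Fin (n i)) ℂ)
    (h : ∀ i, ∃ A B : Matrix (Fin (n i)) (Fin (n i)) ℂ, A * B = 1 ∧ ∀ g, R' i g = A * R i g * B) :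
    (of fun x y : Σ i, Fin (n i) × Fin (n i) => R' x.1 (e y) x.2.1 x.2.2).det =
      (of fun x y : Σ i, Fin (n i) × Fin (n i) => R x.1 (e y) x.2.1 x.2.2).det := by
  choose A B hAB hR using h
  have : (of fun x y : Σ i, Fin (n i) × Fin (n i) => R' x.1 (e y) x.2.1 x.2.2) =
      blockDiagonal' (fun i => A i ⊗ₖ (B i)ᵀ) *
        of fun x y : Σ i, Fin (n i) × Fin (n i) => R x.1 (e y) x.2.1 x.2.2 := by
    ext ⟨i, a, b⟩ y
    rw [Matrix.mul_apply, Fintype.sum_sigma, Finset.sum_eq_single i]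
    · simp only [of_apply, blockDiagonal'_apply_eq, hR, Matrix.mul_apply, Fintype.sum_prod_type,
        kroneckerMap_apply, transpose_apply, Finset.sum_mul]
      rw [Finset.sum_comm]
      exact Finset.sum_congr rfl fun _ _ => Finset.sum_congr rfl fun _ _ => by ring
    · intro j _ hj
      exact Finset.sum_eq_zero fun k _ => by rw [blockDiagonal'_apply_ne _ _ _ hj.symm, zero_mul]
    · simp
  rw [this, det_mul, Known.det_blockDiagonal', Finset.prod_eq_one, one_mul]
  intro i _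
  rw [det_kronecker, det_transpose, ← mul_pow, ← det_mul, hAB, det_one, one_pow]

section Chr
variable {G : Type*} [Group G] [Fintype G] [DecidableEq G] {f : G → ℂ} {m : IrrCharacter G → ℕ}

theorem Idem.chr (h : Idem f m) (X : Finset G) (hX : X.card = ∑ χ, m χ ^ 2) :
    ∃ δ : ℂ, (Matrix.of fun x y : X => Gm f x y).det =
      δ ^ 2 * ((∏ χ : IrrCharacter G, ((χ : G → ℂ) 1 / Nat.card G) ^ (m χ ^ 2)) *
        (-1) ^ ((∑ χ, m χ ^ 2 - ∑ χ, m χ) / 2)) ∧
      ∀ σ : ℂ ≃+* ℂ, (∀ g, σ (f g) = f g) →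
        (∀ χ : IrrCharacter G, m χ ≠ 0 → ∀ g, σ ((χ : G → ℂ) g) = (χ : G → ℂ) g) → σ δ = δ := by
  classical
  obtain ⟨F, hF, hσF⟩ := h.fac
  obtain ⟨e⟩ : Nonempty ((Σ χ, Fin (m χ) × Fin (m χ)) ≃ X) :=
    Fintype.card_eq.1 (by rw [Fintype.card_coe, hX]; simp [pow_two])
  set A : Matrix _ _ ℂ :=
    of fun x y : Σ χ, Fin (m χ) × Fin (m χ) => F x.1 (e y : G) x.2.1 x.2.2 with hA
  obtain ⟨τ, sτ, hτ⟩ := OD4.Det.sign_swap (n := m)
  have h1 : (Matrix.of fun x y : X => Gm f x y).submatrix e e = Aᵀ.submatrix id τ *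
      diagonal (fun x => (x.1 : G → ℂ) 1 / Nat.card G) * A := by
    ext x y
    rw [submatrix_apply, of_apply, hF, Matrix.mul_apply, Fintype.sum_sigma]
    refine Finset.sum_congr rfl fun χ _ => ?_
    rw [Matrix.trace, Fintype.sum_prod_type, Finset.sum_comm, Finset.mul_sum]
    refine Finset.sum_congr rfl fun j _ => ?_
    rw [diag_apply, Matrix.mul_apply, Finset.mul_sum]
    refine Finset.sum_congr rfl fun i _ => ?_
    simp only [mul_diagonal, submatrix_apply, id, hτ, transpose_apply, hA, of_apply]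
    ring
  have h2 := congrArg det h1
  rw [det_submatrix_equiv_self, det_mul, det_mul, det_permute', det_transpose, det_diagonal, sτ,
    Fintype.prod_sigma] at h2
  simp only [Finset.prod_const, Finset.card_univ, Fintype.card_prod, Fintype.card_fin,
    Units.val_pow_eq_pow_val, Units.val_neg, Units.val_one, Int.cast_pow, Int.cast_neg,
    Int.cast_one] at h2
  refine ⟨A.det, ?_, fun σ hf hχ => ?_⟩
  · rw [h2]
    simp only [pow_two]
    ring
  · refine (σ.toRingHom.map_det A).trans ?_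
    have := Chr.indep (fun y => (e y : G)) F (fun χ g => (F χ g).map σ) fun χ => by
      by_cases h0 : m χ = 0
      · have : IsEmpty (Fin (m χ)) := by rw [h0]; infer_instance
        exact ⟨1, 1, mul_one _, fun g => Subsingleton.elim _ _⟩
      · exact hσF σ χ hf (hχ χ h0)
    exact this
end Chr

end Cfsg.Lib.KKL
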