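import Cfsg.Agent.KKL.Struct
import Cfsg.Agent.KKL.Gram
import Cfsg.Agent.KKL.Chr
import Cfsg.Agent.KKL.Unr
import Cfsg.Agent.Block.LocalRing

/-! Tower KKL (statement S4546): the discriminant is not `3` modulo `4`. -/

set_option autoImplicit false

open Cfsg Cfsg.Lib Cfsg.Lib.Char Cfsg.Lib.Block MulAction

namespace Cfsg.Lib.KKL

universe u

namespace Disc

theorem ring (M : Ideal AlgInt) (n : ℕ) : ∃ O : Subring ℂ, ∀ w, w ∈ O ↔
    IsIntegral ℚ w ∧ (∀ σ, Fx n σ → σ w = w) ∧ vM M w ≤ 1 :=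
  ⟨{ carrier := {w | IsIntegral ℚ w ∧ (∀ σ, Fx n σ → σ w = w) ∧ vM M w ≤ 1}
     mul_mem' := fun ha hb => ⟨ha.1.mul hb.1,
       fun σ hσ => by rw [map_mul, ha.2.1 σ hσ, hb.2.1 σ hσ], vM_mul_le_one ha.2.2 hb.2.2⟩
     one_mem' := ⟨isIntegral_one, fun σ _ => map_one σ, by simp⟩
     add_mem' := fun ha hb => ⟨ha.1.add hb.1,
       fun σ hσ => by rw [map_add, ha.2.1 σ hσ, hb.2.1 σ hσ], vM_add_le_one ha.2.2 hb.2.2⟩
     zero_mem' := ⟨isIntegral_zero, fun σ _ => map_zero σ, by simp⟩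
     neg_mem' := fun ha => ⟨ha.1.neg, fun σ hσ => by rw [map_neg, ha.2.1 σ hσ],
       by rw [Valuation.map_neg]; exact ha.2.2⟩ }, fun _ => Iff.rfl⟩

theorem unit_iff {M : Ideal AlgInt} {n : ℕ} {O : Subring ℂ} (hO : ∀ w, w ∈ O ↔
    IsIntegral ℚ w ∧ (∀ σ, Fx n σ → σ w = w) ∧ vM M w ≤ 1) (a : O) :
    IsUnit a ↔ vM M (a : ℂ) = 1 := by
  constructor
  · intro h
    obtain ⟨b, hb⟩ := h.exists_right_inv
    have h1 : (a : ℂ) * b = 1 := by exact_mod_cast congrArg Subtype.val hb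
    rw [vM_eq_one_iff_not_lt ((hO _).1 a.2).2.2]
    intro hlt
    have := vM_mul_lt_one_left hlt ((hO _).1 b.2).2.2
    rw [h1, map_one] at this
    exact lt_irrefl _ this
  · intro h
    have h0 : (a : ℂ) ≠ 0 := fun e => by rw [e, map_zero] at h; exact zero_ne_one h
    obtain ⟨a1, a2, -⟩ := (hO _).1 a.2
    refine IsUnit.of_mul_eq_one (⟨(a : ℂ)⁻¹, (hO _).2 ⟨a1.inv, fun σ hσ => ?_, ?_⟩⟩ : O) ?_
    · rw [map_inv₀, a2 σ hσ]
    · rw [map_inv₀, h, inv_one]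
    · exact Subtype.ext (mul_inv_cancel₀ h0)

theorem fin {M : Ideal AlgInt} (hM : IsPModular 2 M) {n : ℕ} (hn : Odd n) {W Z e : ℂ} {d : ℤ}
    (hW : IsIntegral ℚ W) (hZ : IsIntegral ℚ Z) (hWσ : ∀ σ, Fx n σ → σ W = W)
    (heσ : ∀ σ, Fx n σ → σ e = e) (hZv : vM M Z ≤ 1) (hv : vM M (W ^ 2 + 4 * Z) = 1)
    (he : W ^ 2 + 4 * Z = e ^ 2 * d) : d % 4 ≠ 3 := by
  intro h3
  have v2 : vM M (2 : ℂ) < 1 := by exact_mod_cast vM_p_lt_one hM
  have v0 : 0 < vM M (2 : ℂ) := by exact_mod_cast vM_p_pos hM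
  have vd : vM M (d : ℂ) = 1 := (vM_intCast_eq_one_iff hM d).2 (by push_cast; omega)
  have d0 : (d : ℂ) ≠ 0 := fun e => by rw [e, map_zero] at vd; exact zero_ne_one vd
  have ve : vM M e = 1 := by
    rw [he, map_mul, vd, mul_one, map_pow] at hv
    exact (pow_eq_one_iff_of_nonneg zero_le two_ne_zero).1 hv
  have e0 : e ≠ 0 := fun h => by rw [h, map_zero] at ve; exact zero_ne_one ve
  have hdi : IsIntegral ℚ (d : ℂ) := by
    have := isIntegral_algebraMap (R := ℚ) (A := ℂ) (x := (d : ℚ))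
    simpa using this
  have h4i : IsIntegral ℚ (4 : ℂ) := by
    have := isIntegral_algebraMap (R := ℚ) (A := ℂ) (x := (4 : ℚ))
    simpa using this
  have hei : IsIntegral ℚ e := by
    refine IsIntegral.of_pow (n := 2) two_pos ?_
    have : e ^ 2 = (W ^ 2 + 4 * Z) * (d : ℂ)⁻¹ := by rw [he]; field_simp
    rw [this]
    exact ((hW.pow 2).add (h4i.mul hZ)).mul hdi.inv
  have v4 : ∀ x : ℂ, vM M x ≤ 1 → vM M (4 * x) < vM M (2 : ℂ) := fun x hx => by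
    rw [show (4 : ℂ) * x = 2 * (2 * x) by ring, map_mul]
    calc vM M (2 : ℂ) * vM M (2 * x) < vM M (2 : ℂ) * 1 :=
          mul_lt_mul_of_pos_left (vM_mul_lt_one_left v2 hx) v0
      _ = _ := mul_one _
  have vW : vM M W = 1 := by
    have h1 : vM M (W ^ 2) = 1 := by
      refine vM_eq_one_of_sub_lt ?_ hv
      rw [show W ^ 2 - (W ^ 2 + 4 * Z) = -(4 * Z) by ring, Valuation.map_neg]
      exact (v4 Z hZv).trans v2
    rw [map_pow] at h1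
    exact (pow_eq_one_iff_of_nonneg zero_le two_ne_zero).1 h1
  obtain ⟨c, hc⟩ : ∃ c : ℤ, d + 1 = 4 * c := ⟨(d + 1) / 4, by omega⟩
  have hc' : (d : ℂ) + 1 = 4 * c := by exact_mod_cast hc
  have key : (W * e⁻¹ - 1) ^ 2 = 4 * (c - Z * e⁻¹ ^ 2) - 2 * (W * e⁻¹) := by
    field_simp
    linear_combination he + e ^ 2 * hc'
  have vw : vM M (2 * (W * e⁻¹)) = vM M (2 : ℂ) := by
    rw [map_mul, map_mul, map_inv₀, vW, ve, inv_one, mul_one, mul_one]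
  refine unr hM hn (w := W * e⁻¹ - 1) ((hW.mul hei.inv).sub isIntegral_one) (fun σ hσ => ?_) ?_
  · rw [map_sub, map_mul, map_inv₀, map_one, hWσ σ hσ, heσ σ hσ]
  · rw [← map_pow, key, Valuation.map_sub_eq_of_lt_right, vw]
    rw [vw]
    refine v4 _ (vM_sub_le_one (vM_intCast_le_one c) (vM_mul_le_one hZv ?_))
    rw [map_pow, map_inv₀, ve, inv_one, one_pow]

end Disc

section Chr
variable {G : Type*} [Group G] [Fintype G] [DecidableEq G] {f : G → ℂ} {m : IrrCharacter G → ℕ}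

theorem Idem.disc {M : Ideal AlgInt} (hM : IsPModular 2 M) (h : Idem f m) (D : Subgroup G)
    (h8 : Nat.card D = 8) (hsq : ∀ u ∈ D, u * u = 1) (hD : ∀ u ∈ D, ∀ g, f (u * g) = f (g * u))
    {n : ℕ} (hn : Odd n) (hv : ∀ g, vM M (f g) ≤ 1) (ha : ∀ g, IsIntegral ℚ (f g))
    (hf : ∀ σ, Fx n σ → ∀ g, σ (f g) = f g)
    (hχ : ∀ σ, Fx n σ → ∀ χ : IrrCharacter G, m χ ≠ 0 → ∀ g, σ ((χ : G → ℂ) g) = (χ : G → ℂ) g)
    {ρ : ℚ} {d : ℤ}
    (hd : (∏ χ : IrrCharacter G, ((χ : G → ℂ) 1 / Nat.card G) ^ (m χ ^ 2)) *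
      (-1) ^ ((∑ χ, m χ ^ 2 - ∑ χ, m χ) / 2) = (ρ : ℂ) ^ 2 * d) : d % 4 ≠ 3 := by
  obtain ⟨O, hO⟩ := Disc.ring M n
  have hu := Disc.unit_iff hO
  have v2 : vM M (2 : ℂ) < 1 := by exact_mod_cast vM_p_lt_one hM
  have : IsLocalRing O := IsLocalRing.of_isUnit_or_isUnit_one_sub_self fun a => by
    by_cases h1 : vM M (a : ℂ) < 1
    · refine Or.inr ((hu _).2 (vM_eq_one_of_sub_lt (b := 1) ?_ (map_one _)))
      rw [show (((1 - a : O) : ℂ)) - 1 = -(a : ℂ) by push_cast; ring, Valuation.map_neg]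
      exact h1
    · exact Or.inl ((hu _).2 ((vM_eq_one_iff_not_lt ((hO _).1 a.2).2.2).2 h1))
  have h2 : ¬ IsUnit (2 : O) := fun h2 => by
    have h3 : vM M (2 : ℂ) = 1 := (hu _).1 h2
    exact v2.ne h3
  have hfO : ∀ g, f g ∈ O := fun g => (hO _).2 ⟨ha g, fun σ hσ => hf σ hσ g, hv g⟩
  have hG : ∀ a b, Gm f a b ∈ O := fun a b =>
    O.sum_mem fun x _ => O.mul_mem (hfO _) (hfO _)
  obtain ⟨X, hX, hun, W, Z, hWZ⟩ := struct h2 D h8 hsq (Matrix.of fun a b => (⟨Gm f a b, hG a b⟩ : O))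
    (fun a b => Subtype.ext (Idem.symm a b))
    (fun a b => Subtype.ext (by simpa using h.idem a b))
    (fun u hu a b => Subtype.ext (Idem.adj (hD u hu) a b))
  have hX' : X.card = ∑ χ, m χ ^ 2 := by
    have h1 : (X.card : ℂ) = ∑ g, Gm f g g⁻¹ := by simpa using congrArg Subtype.val hX
    rw [h.tr] at h1
    exact_mod_cast h1
  obtain ⟨δ, hδ, hδσ⟩ := h.chr X hX'
  have hdet : (((Matrix.of fun x y : X =>
      (Matrix.of fun a b => (⟨Gm f a b, hG a b⟩ : O)) x y).det : O) : ℂ) =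
      (Matrix.of fun x y : X => Gm f x y).det := by
    have := O.subtype.map_det (Matrix.of fun x y : X =>
      (Matrix.of fun a b => (⟨Gm f a b, hG a b⟩ : O)) x y)
    exact this
  have hWZ' : (Matrix.of fun x y : X => Gm f x y).det = (W : ℂ) ^ 2 + 4 * Z := by
    rw [← hdet, hWZ]
    rfl
  obtain ⟨W1, W2, -⟩ := (hO _).1 W.2
  obtain ⟨Z1, -, Z3⟩ := (hO _).1 Z.2
  refine Disc.fin hM hn (e := δ * ρ) W1 Z1 W2 (fun σ hσ => ?_) Z3 ?_ ?_
  · rw [map_mul, hδσ σ (hf σ hσ) (hχ σ hσ), map_ratCast]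
  · rw [← hWZ', ← hdet]
    exact (hu _).1 hun
  · rw [← hWZ', hδ, hd]
    ring
end Chr

end Cfsg.Lib.KKL
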