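import Cfsg.Agent.Block.BDGrid

/-! Tower KKL: the contributions of the only non-trivial subsection. -/

set_option autoImplicit false

open Cfsg Cfsg.Lib Cfsg.Lib.Char Cfsg.Lib.Block MulAction

namespace Cfsg.Lib.KKL

universe u

section BD
variable {M : Ideal AlgInt} {S : Type u} [Group S]

theorem num (c : BD 2 M S) (h8 : Nat.card S = 8) (hsq : ∀ u : S, u * u = 1) {u : S} (hu : u ≠ 1)
    (ht : ∀ v, v ≠ 1 → c.ef u v) :
    ∃ η : IrrCharacter c.G → regLat 2 (c.sb u),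
      ∑ χ ∈ irrFin c.B, bf 2 (c.sb u) (η χ) (η χ) = 8 * c.rk u ∧
      ∀ χ ∈ c.B, 0 < bf 2 (c.sb u) (η χ) (η χ) ∧ bf 2 (c.sb u) (η χ) (η χ) < 8 ∧
        (blockHeight 2 c.B (χ : c.G → ℂ) = 0 ↔ ¬ (2 : ℤ) ∣ bf 2 (c.sb u) (η χ) (η χ)) ∧
        (blockHeight 2 c.B (χ : c.G → ℂ) ≠ 0 →
          (2 : ℤ) ^ (blockHeight 2 c.B (χ : c.G → ℂ) + 1) ∣ bf 2 (c.sb u) (η χ) (η χ)) := by
  classical
  have hζ : IsPrimitiveRoot (-1 : ℂ) (2 ^ (0 + 1)) := by
    simpa using IsPrimitiveRoot.neg_one 0 (by norm_num) (R := ℂ)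
  have hu2 : c.ι u ^ 2 ^ (0 + 1) = 1 := by
    rw [← map_pow, zero_add, pow_one, sq, hsq, map_one]
  have hc : u ∈ Subgroup.center S := Subgroup.mem_center_iff.2 fun g => by
    have i : ∀ x : S, x⁻¹ = x := fun x => inv_eq_of_mul_eq_one_right (hsq x)
    rw [← i (g * u), mul_inv_rev, i, i]
  have hp := isMax_pElt c.max (c.mem u)
  have hind := isInducedBlock_subBlk c.hM c.hB c.max (c.mem u)
  have hd := blockDefect_subBlk_of_le c.hM c.hB c.max (c.mem u) (c.le_cent hc)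
  have h3 : 2 ^ blockDefect 2 c.B = 8 := c.card_eq.symm.trans h8
  choose a ha using fun χ : IrrCharacter c.G => exists_isParts Nat.prime_two rfl hζ hu2 (c.sb u)
    χ.2.isGeneralizedCharacter
  have hq : ∀ χ, avgQ (a χ) = bf 2 (c.sb u) (a χ (0, 0) - a χ (0, 1)) (a χ (0, 0) - a χ (0, 1)) :=
    fun χ => Fin.sum_univ_one _
  refine ⟨fun χ => a χ (0, 0) - a χ (0, 1), ?_, fun χ hχ => ?_⟩
  · simp only [← hq]
    rw [sum_avgQ c.hM rfl hζ hu2 hind fun χ _ => ha χ, hd]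
    rw [show (2 : ℤ) ^ blockDefect 2 c.B = 8 by exact_mod_cast h3]
    rfl
  simp only [← hq]
  refine ⟨(ha χ).avgQ_pos c.hM rfl hζ hp hind hd hχ, ?_, (ha χ).odd_avgQ_iff c.hM hind hχ,
    (ha χ).pow_succ_dvd_avgQ c.hM rfl hζ hp hind hd hχ⟩
  have h1 : ∀ x, c.ef 1 x ↔ x = 1 := fun x => ⟨BD.ef.eq_one, fun e => e ▸ c.ef_refl 1⟩
  have h2 : (1 : S → ℂ) = c.dlt 1 + c.dlt u := funext fun x => by
    by_cases hx : x = 1
    · have : ¬ c.ef u 1 := fun h => hu h.symm.eq_one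
      simp [BD.dlt, hx, this, h1]
    · simp [BD.dlt, hx, ht x hx, h1]
  have h4 := BD.mat_dl_one (l := c.dlt 1) (if_pos (c.ef_refl 1))
    (fun v hv => if_neg (by rwa [h1])) hχ hχ
  have h5 := BD.mat_one hχ χ
  rw [h2, BD.mat_add, if_pos rfl] at h5
  have h6 : (8 : ℂ) * c.mat (c.dlt u) χ χ = avgQ (a χ) := by
    have e : subRes 2 _ (c.ι u) (c.sb u) (χ : c.G → ℂ) =
        ((a χ (0, 0) - a χ (0, 1) : regLat 2 (c.sb u)) : _ → ℂ) := by
      have := ha χ 1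
      rw [pow_one, Fintype.sum_prod_type] at this
      rw [this]
      refine (Fin.sum_univ_one _).trans ?_
      rw [Fin.sum_univ_two]
      simp [Cyc.ex, sub_eq_add_neg]
    rw [BD.mat_dl (u := u) (l := c.dlt u) (fun _ hv => if_pos hv) fun _ hv => if_neg hv,
      @Star.ctr_eq _ _ _ _ _ _ _ _ _ _ c.hM c.max χ.2.isClassFunction χ.2.isClassFunction
        (c.eqv u) (c.finC u), hq, bf_cast, hd, ← e]
    congr 1
    exact_mod_cast h3.symm
  have h7 := bf_self_pos (by simpa using Tame.rE_ne_zero (p := 2) hχ (s := 1) rfl)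
  have h9 : ((bf 2 c.B (rE 2 c.B χ) (rE 2 c.B χ) + avgQ (a χ) : ℤ) : ℂ) = (8 : ℤ) := by
    rw [h8] at h4
    push_cast at h4 ⊢
    linear_combination -h4 - h6 + 8 * h5
  have := Int.cast_injective h9
  omega

end BD

end Cfsg.Lib.KKL
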