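import Cfsg.Agent.KKL.Par
import Cfsg.Agent.KKL.Four
import Cfsg.Agent.KKL.Num
import Cfsg.Agent.KKL.GrpB
import Cfsg.Agent.Block.BDGrid
import Cfsg.Agent.Block.BDAb

set_option autoImplicit false

open Cfsg Cfsg.Lib Cfsg.Lib.Char Cfsg.Lib.Block MulAction

namespace Cfsg.Lib.KKL

universe u

section BD
variable {M : Ideal AlgInt} {S : Type u} [Group S]

namespace Eight

theorem comm (hsq : ∀ u : S, u * u = 1) (x y : S) : x * y = y * x := by
  have h := fun a : S => inv_eq_of_mul_eq_one_right (hsq a)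
  rw [← h (x * y), mul_inv_rev, h, h]

theorem rk13 (c : BD 2 M S) (h8 : Nat.card S = 8) (hsq : ∀ u : S, u * u = 1) {u : S} (hu : u ≠ 1)
    (ht : ∀ v, v ≠ 1 → c.ef u v) : c.rk u = 1 ∨ c.rk u = 3 := by
  have := c.finite
  have hc := comm hsq
  have e1 : stabilizer c.aut u = (AG.Sb c.aut u).subgroupOf c.aut := by
    ext g
    exact ⟨fun hg => ⟨g.2, hg⟩, fun hg => hg.2⟩
  have e2 : orbit c.aut u = {1}ᶜ := by
    ext v
    refine ⟨?_, fun hv => ?_⟩
    · rintro ⟨a, rfl⟩ h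
      exact hu ((map_eq_one_iff a.1 a.1.injective).1 h)
    · obtain ⟨a, ha, e⟩ := (BD.ef_iff hc).1 (ht v hv)
      exact ⟨⟨a, ha⟩, e⟩
  have e3 := (stabilizer c.aut u).card_mul_index
  rw [index_stabilizer, e2, e1, Nat.card_congr (Subgroup.subgroupOfEquivOfLe
    (show AG.Sb c.aut u ≤ c.aut from inf_le_left)).toEquiv, Set.ncard_compl,
    Set.ncard_singleton, h8] at e3
  have h := grpB h8 hsq c.aut (c.not_dvd_card_aut hc)
  have h3 : Nat.card (AG.Sb c.aut u) = 1 ∨ Nat.card (AG.Sb c.aut u) = 3 := by omega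
  rw [BD.rk_eq_of_le_three hc (by omega)]
  exact h3

theorem odd (c : BD 2 M S) (h8 : Nat.card S = 8) (hsq : ∀ u : S, u * u = 1) {u : S} (hu : u ≠ 1)
    (η : regLat 2 (c.sb u)) (ho : ¬ (2 : ℤ) ∣ bf 2 (c.sb u) η η) :
    bf 2 (c.sb u) η η % 8 = c.rk u := by
  have := c.finite
  have h4 : u ∈ Subgroup.center S := Subgroup.mem_center_iff.2 fun g => comm hsq g u
  have := normal_zpowers h4
  obtain ⟨d, h5⟩ := c.exists_cq' h4
  obtain ⟨-, ε, h6, -⟩ := h5.iso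
  obtain ⟨η, rfl⟩ := ε.surjective η
  rw [h6] at ho ⊢
  rw [← h5.l_eq]
  refine four d ?_ (fun x => ?_) η ho
  · have h7 := (Subgroup.zpowers u).card_mul_index
    rw [Nat.card_zpowers, orderOf_eq_prime (p := 2) (by rw [sq, hsq]) hu, h8] at h7
    rw [← Subgroup.index_eq_card]; omega
  · obtain ⟨x, rfl⟩ := QuotientGroup.mk_surjective x
    rw [← QuotientGroup.mk_mul, hsq, QuotientGroup.mk_one]

theorem kl (c : BD 2 M S) {u : S} (hu : u ≠ 1) (ht : ∀ v, v ≠ 1 → c.ef u v) :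
    c.k = c.l + c.rk u := by
  classical
  have := c.finite
  have := Fintype.ofFinite S
  have h1 := c.k_eq_sum
  have h2 := BD.sum_wt_ef (b := c) u
  have h3 := BD.sum_wt_ef (b := c) 1
  rw [show (Finset.univ.filter fun v => c.ef u v) = Finset.univ.erase 1 from by
    ext v
    simp only [Finset.mem_filter, Finset.mem_univ, true_and, Finset.mem_erase, and_true]
    exact ⟨fun h e => hu (BD.ef.eq_one (e ▸ h.symm)), ht v⟩] at h2
  rw [show (Finset.univ.filter fun v => c.ef 1 v) = {1} from by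
    ext v
    simp only [Finset.mem_filter, Finset.mem_univ, true_and, Finset.mem_singleton]
    exact ⟨BD.ef.eq_one, fun h => h.symm ▸ c.ef_refl _⟩, Finset.sum_singleton, c.rk_one] at h3
  rw [← Finset.add_sum_erase _ _ (Finset.mem_univ 1), h2, h3] at h1
  exact_mod_cast h1

end Eight

theorem eight (c : BD 2 M S) (h8 : Nat.card S = 8) (hsq : ∀ u : S, u * u = 1) {u : S} (hu : u ≠ 1)
    (ht : ∀ v, v ≠ 1 → c.ef u v) : c.k = 8 ∧ (c.rk u = 1 ∨ c.rk u = 3) ∧ c.k = c.l + c.rk u := by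
  classical
  have hr := Eight.rk13 c h8 hsq hu ht
  refine ⟨?_, hr, Eight.kl c hu ht⟩
  obtain ⟨η, hs, hη⟩ := num c h8 hsq hu ht
  have hp := par c.hM c.hB c.isDefectGroup (by
    rintro _ ⟨x, rfl⟩; rw [← map_mul, hsq, map_one]) le_rfl (c.card_D.trans h8)
  have h0 : ∀ χ ∈ c.B, blockHeight 2 c.B (χ : c.G → ℂ) = 0 →
      bf 2 (c.sb u) (η χ) (η χ) = c.rk u := fun χ hχ h => by
    obtain ⟨a1, a2, a3, -⟩ := hη χ hχ
    have := Eight.odd c h8 hsq hu _ (a3.1 h)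
    omega
  have h1 : ∀ χ ∈ c.B, ¬ blockHeight 2 c.B (χ : c.G → ℂ) = 0 →
      bf 2 (c.sb u) (η χ) (η χ) = 4 ∧ blockHeight 2 c.B (χ : c.G → ℂ) = 1 := fun χ hχ h => by
    obtain ⟨a1, a2, -, a4⟩ := hη χ hχ
    have a5 := a4 h
    have a6 : (2 : ℤ) ^ 2 ∣ _ := (pow_dvd_pow 2 (by omega)).trans a5
    refine ⟨by omega, ?_⟩
    by_contra h2
    have a7 : (2 : ℤ) ^ 3 ∣ _ := (pow_dvd_pow 2 (by omega)).trans a5
    omega
  have e1 : ((irrFin c.B).filter fun χ : IrrCharacter c.G =>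
      blockHeight 2 c.B (χ : c.G → ℂ) = 1) = (irrFin c.B).filter fun χ : IrrCharacter c.G =>
      ¬ blockHeight 2 c.B (χ : c.G → ℂ) = 0 :=
    Finset.filter_congr fun χ hχ => ⟨fun h => by omega, fun h => (h1 χ (mem_irrFin.1 hχ) h).2⟩
  rw [← Finset.sum_filter_add_sum_filter_not _ fun χ : IrrCharacter c.G =>
      blockHeight 2 c.B (χ : c.G → ℂ) = 0,
    Finset.sum_congr rfl fun χ hχ => h0 χ (mem_irrFin.1 (Finset.mem_filter.1 hχ).1)
      (Finset.mem_filter.1 hχ).2,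
    Finset.sum_congr rfl fun χ hχ => (h1 χ (mem_irrFin.1 (Finset.mem_filter.1 hχ).1)
      (Finset.mem_filter.1 hχ).2).1, Finset.sum_const, Finset.sum_const, nsmul_eq_mul,
    nsmul_eq_mul] at hs
  rw [e1] at hp
  have hk := Finset.card_filter_add_card_filter_not (s := irrFin c.B) fun χ : IrrCharacter c.G =>
      blockHeight 2 c.B (χ : c.G → ℂ) = 0
  obtain ⟨ψ, hψ, hψ0⟩ := Ht.exists_blockHeight_eq_zero 2 (isPBlock_nonempty c.hM c.hB)
  have hpos : 0 < ((irrFin c.B).filter fun χ : IrrCharacter c.G =>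
      blockHeight 2 c.B (χ : c.G → ℂ) = 0).card :=
    Finset.card_pos.2 ⟨ψ, Finset.mem_filter.2 ⟨mem_irrFin.2 hψ, hψ0⟩⟩
  rw [card_irrFin] at hk
  rw [BD.k]
  rcases hr with h | h <;> rw [h] at hs <;> push_cast at hs <;> omega

end BD

end Cfsg.Lib.KKL
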