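import Cfsg.Agent.KKL.Defs
import Cfsg.Agent.OD4.Det

/-! Tower KKL: factorisation of the Gram matrix through the irreducible representations. -/

set_option autoImplicit false

open Cfsg Cfsg.Lib Cfsg.Lib.Char

namespace Cfsg.Lib.KKL

namespace Fac

theorem split {n m : ℕ} (p : Matrix (Fin n) (Fin n) ℂ) (hp : p * p = p) (ht : p.trace = m) :
    ∃ (al : Matrix (Fin n) (Fin m) ℂ) (be : Matrix (Fin m) (Fin n) ℂ),
      al * be = p ∧ be * al = 1 := by
  have hL : ∀ x, Matrix.toLin' p (Matrix.toLin' p x) = Matrix.toLin' p x := fun x => by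
    rw [← Matrix.toLin'_mul_apply, hp]
  have hI : LinearMap.IsProj (LinearMap.range (Matrix.toLin' p)) (Matrix.toLin' p) :=
    ⟨fun x => ⟨x, rfl⟩, by rintro _ ⟨x, rfl⟩; exact hL x⟩
  have hr : Module.finrank ℂ (LinearMap.range (Matrix.toLin' p)) = m := by
    apply Nat.cast_injective (R := ℂ)
    rw [← hI.trace, Matrix.trace_toLin'_eq, ht]
  obtain ⟨e⟩ : Nonempty ((LinearMap.range (Matrix.toLin' p)) ≃ₗ[ℂ] (Fin m → ℂ)) :=
    FiniteDimensional.nonempty_linearEquiv_of_finrank_eq (by simp [hr])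
  refine ⟨LinearMap.toMatrix' ((LinearMap.range (Matrix.toLin' p)).subtype ∘ₗ e.symm.toLinearMap),
    LinearMap.toMatrix' (e.toLinearMap ∘ₗ (Matrix.toLin' p).rangeRestrict), ?_, ?_⟩
  · rw [← LinearMap.toMatrix'_comp]
    conv_rhs => rw [← LinearMap.toMatrix'_toLin' p]
    congr 1
    refine LinearMap.ext fun x => ?_
    simp
  · rw [← LinearMap.toMatrix'_comp, ← LinearMap.toMatrix'_id]
    congr 1
    refine LinearMap.ext fun x => ?_
    simp only [LinearMap.comp_apply, LinearEquiv.coe_coe, LinearMap.id_apply]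
    conv_rhs => rw [← e.apply_symm_apply x]
    congr 1
    exact Subtype.ext (hI.map_id _ (e.symm x).2)

variable {G : Type*} [Group G] [Fintype G]

theorem idem {n : ℕ} {f : G → ℂ} (h : ∀ z, ∑ x, f x * f (x⁻¹ * z) = f z)
    (R : G →* Matrix (Fin n) (Fin n) ℂ) :
    (∑ g, f g • R g) * (∑ g, f g • R g) = ∑ g, f g • R g := by
  calc (∑ g, f g • R g) * (∑ g, f g • R g)
      = ∑ x, ∑ z, (f x * f (x⁻¹ * z)) • R z := by
        rw [Finset.sum_mul]
        refine Finset.sum_congr rfl fun x _ => ?_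
        rw [Finset.mul_sum, ← Equiv.sum_comp (Equiv.mulLeft x⁻¹)]
        refine Finset.sum_congr rfl fun z _ => ?_
        rw [smul_mul_smul_comm, ← map_mul, Equiv.coe_mulLeft, mul_inv_cancel_left]
    _ = _ := by
        rw [Finset.sum_comm]
        exact Finset.sum_congr rfl fun z _ => by rw [← Finset.sum_smul, h]

theorem tr {n : ℕ} (f : G → ℂ) (R : G →* Matrix (Fin n) (Fin n) ℂ) (a b : G) :
    ((∑ g, f g • R g) * R a * (∑ g, f g • R g) * R b).trace =
      ∑ x, ∑ y, f x * f y * (R (x * a * y * b)).trace := by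
  simp only [Finset.sum_mul, Finset.mul_sum, Matrix.trace_sum, smul_mul_assoc, mul_smul_comm,
    Matrix.trace_smul, map_mul, smul_eq_mul]
  rw [Finset.sum_comm]
  exact Finset.sum_congr rfl fun x _ => Finset.sum_congr rfl fun y _ => by ring

end Fac

variable {G : Type*} [Group G] [Fintype G] [DecidableEq G] {f : G → ℂ} {m : IrrCharacter G → ℕ}

set_option linter.unusedSectionVars false in
theorem Idem.fac (h : Idem f m) :
    ∃ F : ∀ χ : IrrCharacter G, G → Matrix (Fin (m χ)) (Fin (m χ)) ℂ,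
      (∀ a b, Gm f a b = ∑ χ : IrrCharacter G,
        (χ : G → ℂ) 1 / Nat.card G * (F χ a * F χ b).trace) ∧
      ∀ (σ : ℂ ≃+* ℂ) (χ : IrrCharacter G), (∀ g, σ (f g) = f g) →
        (∀ g, σ ((χ : G → ℂ) g) = (χ : G → ℂ) g) →
        ∃ A B : Matrix (Fin (m χ)) (Fin (m χ)) ℂ, A * B = 1 ∧
          ∀ g, (F χ g).map σ = A * F χ g * B := by
  choose R hR using OD4.Det.exists_mat (G := G)
  have ht : ∀ χ : IrrCharacter G, (∑ g, f g • R χ g).trace = m χ := fun χ => by
    rw [Matrix.trace_sum, ← h.rk χ]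
    exact Finset.sum_congr rfl fun g _ => by rw [Matrix.trace_smul, hR, smul_eq_mul]
  choose al be hab hba using fun χ => Fac.split _ (Fac.idem h.sq (R χ)) (ht χ)
  have hN : (Nat.card G : ℂ) ≠ 0 := Nat.cast_ne_zero.2 Nat.card_pos.ne'
  refine ⟨fun χ g => be χ * R χ g * al χ, fun a b => ?_, fun σ χ hf hχ => ?_⟩
  · have e1 : ∀ χ : IrrCharacter G, (be χ * R χ a * al χ * (be χ * R χ b * al χ)).trace =
        ∑ x, ∑ y, f x * f y * (χ : G → ℂ) (x * a * y * b) := fun χ => by
      have := Fac.tr f (R χ) a b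
      simp only [hR] at this
      rw [← this, ← hab χ]
      rw [← Matrix.mul_assoc, Matrix.trace_mul_comm]
      simp only [Matrix.mul_assoc]
    simp only [e1]
    have e2 : ∑ χ : IrrCharacter G, (χ : G → ℂ) 1 / Nat.card G *
        ∑ x, ∑ y, f x * f y * (χ : G → ℂ) (x * a * y * b) =
        ∑ x, ∑ y, f x * f y / Nat.card G *
          ∑ χ : IrrCharacter G, (χ : G → ℂ) 1 * (χ : G → ℂ) (x * a * y * b) := by
      simp only [Finset.mul_sum]
      rw [Finset.sum_comm]
      refine Finset.sum_congr rfl fun x _ => ?_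
      rw [Finset.sum_comm]
      exact Finset.sum_congr rfl fun y _ => Finset.sum_congr rfl fun χ _ => by ring
    rw [e2, Gm]
    refine Finset.sum_congr rfl fun x _ => ?_
    rw [Finset.sum_eq_single (a⁻¹ * x⁻¹ * b⁻¹)]
    · rw [sum_irr_degree_mul, if_pos (by group)]
      field_simp
    · intro y _ hy
      rw [sum_irr_degree_mul, if_neg, mul_zero]
      intro e
      apply hy
      calc y = a⁻¹ * x⁻¹ * (x * a * y * b) * b⁻¹ := by group
        _ = _ := by rw [e, mul_one]
    · simp
  · obtain ⟨A, B, hAB, hR'⟩ := OD4.Det.conj_of_trace (R χ)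
      ((σ.toRingHom.mapMatrix).toMonoidHom.comp (R χ)) fun g => by
        change _ = ((R χ g).map σ.toRingHom).trace
        rw [← AddMonoidHom.map_trace, hR]
        exact (hχ g).symm
    have hR2 : ∀ g, (R χ g).map σ = A * R χ g * B := hR'
    have hBA : B * A = 1 := mul_eq_one_comm.1 hAB
    have h1 : (be χ).map σ * (al χ).map σ = 1 := by
      rw [← Matrix.map_mul, hba, Matrix.map_one _ (map_zero σ) (map_one σ)]
    have h2 : (al χ).map σ * (be χ).map σ = A * (al χ * be χ) * B := by
      rw [← Matrix.map_mul, hab, Finset.mul_sum, Finset.sum_mul]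
      ext i j
      simp only [Matrix.map_apply, Matrix.sum_apply, map_sum, mul_smul_comm, smul_mul_assoc,
        Matrix.smul_apply, smul_eq_mul, map_mul, hf, ← hR2]
    have h3 : (be χ).map σ * A * al χ * be χ = (be χ).map σ * A := by
      calc (be χ).map σ * A * al χ * be χ
          = (be χ).map σ * (A * (al χ * be χ) * B) * A := by
            simp only [Matrix.mul_assoc, hBA, Matrix.mul_one]
        _ = _ := by rw [← h2, ← Matrix.mul_assoc, h1, Matrix.one_mul]
    have h4 : al χ * (be χ * B * (al χ).map σ) = B * (al χ).map σ := by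
      calc al χ * (be χ * B * (al χ).map σ)
          = (B * A) * (al χ * (be χ * B * (al χ).map σ)) := by rw [hBA, Matrix.one_mul]
        _ = B * ((A * (al χ * be χ) * B) * (al χ).map σ) := by simp only [Matrix.mul_assoc]
        _ = _ := by rw [← h2, Matrix.mul_assoc, h1, Matrix.mul_one]
    refine ⟨(be χ).map σ * A * al χ, be χ * B * (al χ).map σ, ?_, fun g => ?_⟩
    · rw [Matrix.mul_assoc ((be χ).map σ * A), h4, Matrix.mul_assoc, ← Matrix.mul_assoc A, hAB,
        Matrix.one_mul, h1]
    · calc (be χ * R χ g * al χ).map σ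
          = ((be χ).map σ * A) * R χ g * (B * (al χ).map σ) := by
            rw [Matrix.map_mul, Matrix.map_mul, hR2]
            simp only [Matrix.mul_assoc]
        _ = ((be χ).map σ * A * al χ * be χ) * R χ g * (al χ * (be χ * B * (al χ).map σ)) := by
            rw [h3, h4]
        _ = _ := by simp only [Matrix.mul_assoc]

end Cfsg.Lib.KKL
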