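import Cfsg.Agent.Block.DefectNum
import Cfsg.Agent.Block.OmegaFun
import Cfsg.Agent.Block.BlockOrth

/-! Tower KKL: a linear character of a defect class element seeing every height exactly. -/

set_option autoImplicit false

open Cfsg Cfsg.Lib Cfsg.Lib.Char Cfsg.Lib.Block MulAction

namespace Cfsg.Lib.KKL

universe u

namespace IdB

theorem geom {o : ℕ} {ζ : ℂ} (hζ : IsPrimitiveRoot ζ o) (m : ℕ) :
    ∑ i ∈ Finset.range o, (ζ ^ m) ^ i = if o ∣ m then (o : ℂ) else 0 := by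
  split_ifs with h
  · rw [(hζ.pow_eq_one_iff_dvd m).2 h]
    simp
  · have h1 : ζ ^ m - 1 ≠ 0 := sub_ne_zero.2 fun e => h ((hζ.pow_eq_one_iff_dvd m).1 e)
    have h2 := geom_sum_mul (ζ ^ m) o
    rw [← pow_mul, mul_comm m o, pow_mul, hζ.pow_eq_one, one_pow, sub_self] at h2
    exact (mul_eq_zero.1 h2).resolve_right h1

theorem four {o : ℕ} {ζ : ℂ} (hζ : IsPrimitiveRoot ζ o) (f : ℕ → ℂ) {j0 : ℕ} (hj : j0 < o) :
    ∑ i ∈ Finset.range o, (ζ ^ (o - j0)) ^ i * ∑ j ∈ Finset.range o, (ζ ^ i) ^ j * f j =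
      o * f j0 := by
  have e : ∀ i, (ζ ^ (o - j0)) ^ i * ∑ j ∈ Finset.range o, (ζ ^ i) ^ j * f j =
      ∑ j ∈ Finset.range o, (ζ ^ (o - j0 + j)) ^ i * f j := by
    intro i
    rw [Finset.mul_sum]
    refine Finset.sum_congr rfl fun j _ => ?_
    rw [pow_add, mul_pow, ← pow_mul ζ i j, ← pow_mul ζ j i, mul_comm i j, mul_assoc]
  simp_rw [e]
  rw [Finset.sum_comm]
  simp_rw [← Finset.sum_mul, geom hζ]
  rw [Finset.sum_eq_single j0]
  · rw [if_pos (by rw [Nat.sub_add_cancel hj.le])]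
  · intro j hjo hne
    rw [Finset.mem_range] at hjo
    rw [if_neg, zero_mul]
    rintro ⟨k, hk⟩
    rcases k with _ | _ | k
    · omega
    · omega
    · have : o * (k + 1 + 1) = o * k + o + o := by ring
      omega
  · intro h
    exact absurd (Finset.mem_range.2 hj) h

end IdB

section Blk
variable {G : Type u} [Group G] [Fintype G] [DecidableEq G] {M : Ideal AlgInt}
  {B : Set (IrrCharacter G)} {D : Subgroup G}

theorem idB (hM : IsPModular 2 M) (hB : IsPBlock M B) (hD : IsDefectGroup 2 M B D) :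
    ∃ (y : G) (ω : ℂ), Odd (orderOf y) ∧ ω ^ orderOf y = 1 ∧ (∀ u ∈ D, u * y = y * u) ∧
      ∀ χ ∈ B, vM M (∑ j ∈ Finset.range (orderOf y), ω ^ j * (χ : G → ℂ) (y ^ j)) =
        vM M 2 ^ blockHeight 2 B (χ : G → ℂ) := by
  haveI : Fact (Nat.Prime 2) := ⟨Nat.prime_two⟩
  have hcard := card_defect hM hB hD
  obtain ⟨y, hy, P, hP⟩ := hD
  have hodd : ¬ 2 ∣ orderOf y := by
    intro h
    have h0 := Cfsg.Lib.Block.blockCoeff_eq_zero_of_dvd hM hB h
    have h1 := vM_eq_one_of_mem_of_not_mem hM hy.1 hy.2.1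
    rw [h0, map_zero] at h1
    exact zero_ne_one h1
  have hDy : ∀ u ∈ D, u * y = y * u := by
    intro u hu
    rw [hP] at hu
    obtain ⟨x, -, rfl⟩ := hu
    exact Subgroup.mem_centralizer_singleton_iff.1 x.2
  have hdv : ∀ j : ℕ, ∃ c : ℕ, Nat.card (Subgroup.centralizer ({y ^ j} : Set G)) =
      2 ^ blockDefect 2 B * c := by
    intro j
    rw [← hcard]
    refine Subgroup.card_dvd_of_le fun u hu => ?_
    exact Subgroup.mem_centralizer_singleton_iff.2 (Commute.pow_right (hDy u hu) j).eq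
  choose c hc using hdv
  have hG : (Nat.card G : ℂ) ≠ 0 := Nat.cast_ne_zero.2 Nat.card_pos.ne'
  obtain ⟨χ0, hχ0, h00⟩ : ∃ χ ∈ B, blockHeight 2 B (χ : G → ℂ) = 0 := by
    refine Ht.exists_blockHeight_eq_zero 2 ?_
    obtain ⟨χ, rfl⟩ := hB
    refine ⟨χ, fun g => ?_⟩
    rw [sub_self]
    exact (memLocalIdeal_iff_of_isIntegral hM isIntegral_zero).2 (by rw [map_zero]; exact zero_lt_one)
  have hone : ∀ χ : IrrCharacter G, (χ : G → ℂ) 1 ≠ 0 := by
    intro χ h
    have h1 := vM_apply_one hM χ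
    rw [h, map_zero] at h1
    exact (pow_pos (vM_p_pos hM) _).ne h1
  -- the normalised sums
  let W : IrrCharacter G → ℂ → ℂ := fun χ ω =>
    ∑ j ∈ Finset.range (orderOf y), ω ^ j * (centralChar (χ : G → ℂ) (y ^ j) * c j)
  let t : IrrCharacter G → ℂ := fun χ => (χ : G → ℂ) 1 * 2 ^ blockDefect 2 B / Nat.card G
  have hS : ∀ (χ : IrrCharacter G) (ω : ℂ),
      ∑ j ∈ Finset.range (orderOf y), ω ^ j * (χ : G → ℂ) (y ^ j) = t χ * W χ ω := by
    intro χ ω
    simp only [W, t]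
    rw [Finset.mul_sum]
    refine Finset.sum_congr rfl fun j _ => ?_
    have h1 := Subgroup.card_mul_index (Subgroup.centralizer ({y ^ j} : Set G))
    rw [hc j] at h1
    have h2 : (Nat.card G : ℂ) = 2 ^ blockDefect 2 B * c j *
        ((Subgroup.centralizer ({y ^ j} : Set G)).index : ℂ) := by
      rw [← h1]; push_cast; ring
    have h3 := hone χ
    unfold centralChar
    field_simp
    rw [h2]
    ring
  have ht : ∀ χ ∈ B, vM M (t χ) = vM M 2 ^ blockHeight 2 B (χ : G → ℂ) := by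
    intro χ hχ
    have e1 := Ht.factorization_charDegree_eq (p := 2) hχ
    have e2 := Ht.factorization_charDegree_eq (p := 2) hχ0
    have e3 := factorization_degree_of_height_zero hM hB hχ0 h00
    have h2 : vM M ((2 : ℕ) : ℂ) ≠ 0 := (vM_p_pos hM).ne'
    simp only [t]
    rw [map_div₀, map_mul, map_pow, vM_apply_one hM, vM_card hM G, div_eq_iff (pow_ne_zero _ h2)]
    rw [Nat.cast_ofNat, ← pow_add, ← pow_add]
    congr 1
    omega
  have hW : ∀ (χ : IrrCharacter G) (ω : ℂ), vM M ω ≤ 1 → vM M (W χ ω) ≤ 1 := by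
    intro χ ω hω
    exact vM_sum_le_one fun j _ => vM_mul_le_one (vM_pow_le_one hω j)
      (vM_mul_le_one (vM_le_one_of_isIntegral (isIntegral_centralChar χ.2 _)) (vM_natCast_le_one _))
  have hWW : ∀ χ ∈ B, ∀ ω : ℂ, vM M ω ≤ 1 → vM M (W χ ω - W χ0 ω) < 1 := by
    intro χ hχ ω hω
    simp only [W]
    rw [← Finset.sum_sub_distrib]
    refine vM_sum_lt_one fun j _ => ?_
    rw [← mul_sub, ← sub_mul]
    refine vM_mul_lt_one_right (vM_pow_le_one hω j) (vM_mul_lt_one_left ?_ (vM_natCast_le_one _))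
    obtain ⟨ψ, rfl⟩ := hB
    have a1 := vM_lt_one_of_memLocalIdeal hM (hχ (y ^ j))
    have a2 := vM_lt_one_of_memLocalIdeal hM (hχ0 (y ^ j))
    rw [vM_sub_comm] at a1
    exact vM_sub_trans a1 a2
  have ho : orderOf y ≠ 0 := (orderOf_pos y).ne'
  have hζ := Complex.isPrimitiveRoot_exp (orderOf y) ho
  set ζ := Complex.exp (2 * Real.pi * Complex.I / orderOf y) with hζdef
  have hζ1 : vM M ζ ≤ 1 := vM_le_one_of_isIntegral
    (IsIntegral.of_pow (orderOf_pos y) (by rw [hζ.pow_eq_one]; exact isIntegral_one))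
  have hex : ∃ i : ℕ, vM M (W χ0 (ζ ^ i)) = 1 := by
    by_contra hcon
    push Not at hcon
    have h1 := IdB.four hζ (fun j => (χ0 : G → ℂ) (y ^ j))
      (Nat.mod_lt 1 (orderOf_pos y))
    have h2 : vM M ((orderOf y : ℂ) * (χ0 : G → ℂ) (y ^ (1 % orderOf y))) < 1 := by
      rw [← h1]
      refine vM_sum_lt_one fun i _ =>
        vM_mul_lt_one_right (vM_pow_le_one (vM_pow_le_one hζ1 _) _) ?_
      rw [hS, map_mul, ht χ0 hχ0, h00, pow_zero, one_mul]
      exact lt_of_le_of_ne (hW χ0 _ (vM_pow_le_one hζ1 i)) (hcon i)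
    rw [pow_mod_orderOf, pow_one, map_mul, vM_char_eq_one_of_isDefectClass hM hB hχ0 h00 hy,
      (vM_natCast_eq_one_iff hM _).2 hodd, one_mul] at h2
    exact lt_irrefl _ h2
  obtain ⟨i, hi⟩ := hex
  refine ⟨y, ζ ^ i, Nat.odd_iff.2 (by omega), ?_, hDy, fun χ hχ => ?_⟩
  · rw [← pow_mul, mul_comm, pow_mul, hζ.pow_eq_one, one_pow]
  · rw [hS, map_mul, ht χ hχ,
      vM_eq_one_of_sub_lt (hWW χ hχ _ (vM_pow_le_one hζ1 i)) hi, mul_one]

end Blk

end Cfsg.Lib.KKL
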