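import Cfsg.Agent.KKL.Four
import Cfsg.Agent.KKL.Num2
import Cfsg.Agent.KKL.GrpB
import Cfsg.Agent.R16.Pur8
import Cfsg.Agent.R16.Diag
import Cfsg.Agent.R16.EvA
import Cfsg.Agent.R16.K8

/-! Blocks with elementary abelian defect group of order eight have eight characters. -/

set_option autoImplicit false

open Cfsg Cfsg.Lib Cfsg.Lib.Char Cfsg.Lib.Block MulAction

namespace Cfsg.Lib.KKL

universe u

section BD
variable {M : Ideal AlgInt} {S : Type u} [Group S]

namespace K8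

theorem comm (hsq : ∀ u : S, u * u = 1) (x y : S) : x * y = y * x := by
  have h := fun a : S => inv_eq_of_mul_eq_one_right (hsq a)
  rw [← h (x * y), mul_inv_rev, h, h]

theorem rk13 (c : BD 2 M S) (h8 : Nat.card S = 8) (hsq : ∀ u : S, u * u = 1) {u : S} (hu : u ≠ 1)
    (ht : ∀ v, v ≠ 1 → c.ef u v) : c.rk u = 1 ∨ c.rk u = 3 := by
  have := c.finite
  have hc := comm hsq
  have e1 : stabilizer c.aut u = (AG.Sb c.aut u).subgroupOf c.aut := by
    ext g
    exact ⟨fun hg => ⟨g.2, hg⟩, fun hg => hg.2⟩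
  have e2 : orbit c.aut u = {1}ᶜ := by
    ext v
    refine ⟨?_, fun hv => ?_⟩
    · rintro ⟨a, rfl⟩ h
      exact hu ((map_eq_one_iff a.1 a.1.injective).1 h)
    · obtain ⟨a, ha, e⟩ := (BD.ef_iff hc).1 (ht v hv)
      exact ⟨⟨a, ha⟩, e⟩
  have e3 := (stabilizer c.aut u).card_mul_index
  rw [index_stabilizer, e2, e1, Nat.card_congr (Subgroup.subgroupOfEquivOfLe
    (show AG.Sb c.aut u ≤ c.aut from inf_le_left)).toEquiv, Set.ncard_compl,
    Set.ncard_singleton, h8] at e3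
  have h := grpB h8 hsq c.aut (c.not_dvd_card_aut hc)
  have h3 : Nat.card (AG.Sb c.aut u) = 1 ∨ Nat.card (AG.Sb c.aut u) = 3 := by omega
  rw [BD.rk_eq_of_le_three hc (by omega)]
  exact h3

theorem odd (c : BD 2 M S) (h8 : Nat.card S = 8) (hsq : ∀ u : S, u * u = 1) {u : S} (hu : u ≠ 1)
    (η : regLat 2 (c.sb u)) (ho : ¬ (2 : ℤ) ∣ bf 2 (c.sb u) η η) :
    bf 2 (c.sb u) η η % 8 = c.rk u := by
  have := c.finite
  have h4 : u ∈ Subgroup.center S := Subgroup.mem_center_iff.2 fun g => comm hsq g u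
  have := normal_zpowers h4
  obtain ⟨d, h5⟩ := c.exists_cq' h4
  obtain ⟨-, ε, h6, -⟩ := h5.iso
  obtain ⟨η, rfl⟩ := ε.surjective η
  rw [h6] at ho ⊢
  rw [← h5.l_eq]
  refine four d ?_ (fun x => ?_) η ho
  · have h7 := (Subgroup.zpowers u).card_mul_index
    rw [Nat.card_zpowers, orderOf_eq_prime (p := 2) (by rw [sq, hsq]) hu, h8] at h7
    rw [← Subgroup.index_eq_card]; omega
  · obtain ⟨x, rfl⟩ := QuotientGroup.mk_surjective x
    rw [← QuotientGroup.mk_mul, hsq, QuotientGroup.mk_one]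

theorem eightK (c : BD 2 M S) (h8 : Nat.card S = 8) (hsq : ∀ u : S, u * u = 1) {u : S}
    (hu : u ≠ 1) (ht : ∀ v, v ≠ 1 → c.ef u v) : c.k = 8 := by
  classical
  have := c.finite
  have : Nontrivial S := ⟨u, 1, hu⟩
  have hr := rk13 c h8 hsq hu ht
  obtain ⟨η, e1, hs, hη⟩ := num2 c h8 hsq hu ht
  obtain ⟨N, e2, hpa, -⟩ := R16.diag c hsq u
  have e3 : ∀ χ ψ, N χ ψ = bf 2 (c.sb u) (η χ) (η ψ) := fun χ ψ => by
    apply Int.cast_injective (α := ℂ)
    rw [← e1, ← e2, h8]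
    norm_num
  have e4 : ∀ χ ψ, (N χ ψ : ℂ) = 8 * c.mat (c.dlt u) χ ψ := fun χ ψ => by rw [e3, e1]
  have hd : c.dlt u * c.dlt u = c.dlt u := funext fun x => by
    simp only [Pi.mul_apply, BD.dlt]
    split_ifs <;> simp
  obtain ⟨ψ, hψ, hψ0⟩ := Ht.exists_blockHeight_eq_zero 2 (isPBlock_nonempty c.hM c.hB)
  have key := R16.pur8 (irrFin c.B) N (fun χ => blockHeight 2 c.B (χ : c.G → ℂ) = 0) (c.rk u)
    (by rcases hr with h | h <;> simp [h]) (fun i j => by rw [e3, e3, bf_symm])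
    (fun i j => ?_) (fun i hi j hj => hpa i (mem_irrFin.1 hi) j (mem_irrFin.1 hj))
    (fun i hi h => ?_) (fun i hi h => ?_) (by simpa only [e3] using hs)
    ⟨ψ, mem_irrFin.2 hψ, hψ0⟩ (fun a ha => R16.evA c hsq a fun v hv χ => ?_)
  · rw [BD.k, ← card_irrFin, key.1]
  · apply Int.cast_injective (α := ℂ)
    push_cast
    simp only [e4]
    have := BD.mat_mul (BD.st_dlt (b := c) u) (BD.st_dlt u) i j
    rw [hd] at this
    rw [← this, Finset.mul_sum, Finset.mul_sum]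
    exact Finset.sum_congr rfl fun x _ => by ring
  · obtain ⟨a1, a2, a3, -⟩ := hη i (mem_irrFin.1 hi)
    have := odd c h8 hsq hu _ (a3.1 h)
    rw [e3]
    omega
  · obtain ⟨a1, a2, -, a4⟩ := hη i (mem_irrFin.1 hi)
    have a6 : (2 : ℤ) ^ 2 ∣ _ := (pow_dvd_pow 2 (by omega)).trans (a4 h)
    rw [e3]
    omega
  · have h1 : c.dlt v = c.dlt u := funext fun x => by
      rw [BD.dlt, BD.dlt, propext ⟨fun h : c.ef v x => (ht v hv).trans h,
        fun h => (ht v hv).symm.trans h⟩]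
    have h2 := congrArg (Int.cast (R := ℂ)) (ha χ)
    push_cast at h2
    simp only [e4] at h2
    rw [h1]
    apply mul_left_cancel₀ (show (8 : ℂ) ≠ 0 by norm_num)
    rw [mul_zero, ← h2, Finset.mul_sum]
    exact Finset.sum_congr rfl fun x _ => by ring

end K8

theorem kkl (c : BD 2 M S) (h8 : Nat.card S = 8) (he : ∀ u : S, u * u = 1) : c.k = 8 :=
  R16.k8 c h8 he fun _ hu ht => K8.eightK c h8 he hu ht

end BD

end Cfsg.Lib.KKL
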