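import Cfsg.Agent.KKL.Defs
import Cfsg.Agent.Block.DefectCenter

set_option autoImplicit false
set_option linter.unusedSectionVars false

open Cfsg Cfsg.Lib Cfsg.Lib.Char Cfsg.Lib.Block MulAction

namespace Cfsg.Lib.KKL

universe u

section Blk
variable {G : Type u} [Group G] [Fintype G] [DecidableEq G] {M : Ideal AlgInt}
  {B : Set (IrrCharacter G)} {D : Subgroup G}

theorem rat (hM : IsPModular 2 M) (hB : IsPBlock M B) (hD : IsDefectGroup 2 M B D)
    (hsq : ∀ u ∈ D, u * u = 1) {σ : ℂ ≃+* ℂ} (hσ : Fx (ordCompl[2] (Nat.card G)) σ)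
    {χ : IrrCharacter G} (hχ : χ ∈ B) (g : G) : σ ((χ : G → ℂ) g) = (χ : G → ℂ) g := by
  have : Fact (Nat.Prime 2) := ⟨Nat.prime_two⟩
  by_cases h0 : (χ : G → ℂ) g = 0
  · rw [h0, map_zero]
  obtain ⟨x, hx⟩ := exists_isPPart Nat.prime_two g
  obtain ⟨E, hE, hxE⟩ := exists_defect_mem_of_apply_ne_zero hM hB hχ hx h0
  obtain ⟨c, rfl⟩ := defect_exists_conj hM hB hD hE
  have x2 : x ^ 2 = 1 := by
    have h := hsq _ ⟨x, hxE, rfl⟩
    rw [← map_mul] at h
    rw [pow_two]
    exact (MulAut.conj c).injective (h.trans (map_one _).symm)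
  obtain ⟨y, rfl, cm, -, hy⟩ := hx
  have c0 : Nat.card G ≠ 0 := Nat.card_pos.ne'
  have od : ¬ 2 ∣ ordCompl[2] (Nat.card G) := Nat.not_dvd_ordCompl Nat.prime_two c0
  have dy : orderOf y ∣ ordCompl[2] (Nat.card G) := by
    refine Nat.Coprime.dvd_of_dvd_mul_left (m := ordProj[2] (Nat.card G))
      (Nat.Coprime.pow_right _ ((Nat.Prime.coprime_iff_not_dvd Nat.prime_two).2 hy).symm) ?_
    rw [Nat.ordProj_mul_ordCompl_eq_self]
    exact orderOf_dvd_natCard y
  generalize ordCompl[2] (Nat.card G) = n at hσ od dy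
  have on : Odd n := Nat.odd_iff.2 (by omega)
  refine χ.2.isGeneralizedCharacter.ringHom_apply_eq (x * y) (n := n * 2) (by omega) ?_
    (σ : ℂ →+* ℂ) fun z hz => ?_
  · rw [cm.mul_pow, mul_comm n, pow_mul, x2, one_pow, one_mul, mul_comm, pow_mul,
      orderOf_dvd_iff_pow_eq_one.1 dy, one_pow]
  · rw [pow_mul, pow_two, mul_self_eq_one_iff] at hz
    rcases hz with h | h
    · exact hσ z h
    · have := hσ (-z) (by rw [on.neg_pow, h, neg_neg])
      rw [map_neg, neg_inj] at this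
      exact this
end Blk

end Cfsg.Lib.KKL
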