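import Cfsg.Agent.KKL.Disc
import Cfsg.Agent.KKL.Rat
import Cfsg.Agent.KKL.IdA
import Cfsg.Agent.KKL.IdB
import Cfsg.Agent.KKL.Ar
import Cfsg.Agent.KKL.Gram
import Cfsg.Agent.Block.BDAb

/-! Tower KKL (statement S4546): the parity relation between heights. -/

set_option autoImplicit false

open Cfsg Cfsg.Lib Cfsg.Lib.Char Cfsg.Lib.Block MulAction

namespace Cfsg.Lib.KKL

universe u

section Blk
variable {G : Type u} [Group G] [Fintype G] [DecidableEq G] {M : Ideal AlgInt}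
  {B : Set (IrrCharacter G)} {D : Subgroup G}

theorem par (hM : IsPModular 2 M) (hB : IsPBlock M B) (hD : IsDefectGroup 2 M B D)
    (hsq : ∀ u ∈ D, u * u = 1) {E : Subgroup G} (hE : E ≤ D) (h8 : Nat.card E = 8) :
    (((irrFin B).filter fun χ : IrrCharacter G => blockHeight 2 B (χ : G → ℂ) = 0).card +
      2 * ((irrFin B).filter fun χ : IrrCharacter G =>
        blockHeight 2 B (χ : G → ℂ) = 1).card) % 4 = 0 := by
  classical
  obtain ⟨y, ω, hy, hω, hyD, hv⟩ := idB hM hB hD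
  obtain ⟨f, m, hI, hvf, hint, hcomm, hgal, hm⟩ := idA hM hB hy hω
  have hG : Nat.card G ≠ 0 := Nat.card_pos.ne'
  have ho : ¬ 2 ∣ orderOf y := by rw [← even_iff_two_dvd]; exact Nat.not_even_iff_odd.2 hy
  have ho0 : (orderOf y : ℂ) ≠ 0 := Nat.cast_ne_zero.2 (orderOf_pos y).ne'
  have hn : Odd (ordCompl[2] (Nat.card G)) := by
    rw [← Nat.not_even_iff_odd, even_iff_two_dvd]
    exact Nat.not_dvd_ordCompl Nat.prime_two hG
  have hdv : orderOf y ∣ ordCompl[2] (Nat.card G) :=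
    Nat.dvd_ordCompl_of_dvd_not_dvd (orderOf_dvd_natCard y) ho
  have hσω : ∀ σ, Fx (ordCompl[2] (Nat.card G)) σ → σ ω = ω := fun σ hσ => hσ ω (by
    obtain ⟨j, hj⟩ := hdv
    rw [hj, pow_mul, hω, one_pow])
  have h0 : ∀ χ, χ ∉ B → m χ = 0 := fun χ hχ => by
    have h1 := hm χ
    rw [if_neg hχ] at h1
    exact_mod_cast (mul_eq_zero.1 h1).resolve_left ho0
  have hd1 : ∀ χ : IrrCharacter G, (charDegree (χ : G → ℂ) : ℂ) = (χ : G → ℂ) 1 := fun χ => by
    obtain ⟨n, hn⟩ := χ.2.isCharacter.exists_nat_degree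
    simp [charDegree, hn]
  have hd0 : ∀ χ : IrrCharacter G, charDegree (χ : G → ℂ) ≠ 0 := fun χ h =>
    χ.2.apply_one_ne_zero (by rw [← hd1, h, Nat.cast_zero])
  set c := sInf ((fun ψ : IrrCharacter G => (charDegree (ψ : G → ℂ)).factorization 2) '' B) with hc
  have hdef : 3 ≤ (Nat.card G).factorization 2 - c := by
    have h1 : Nat.card D = 2 ^ blockDefect 2 B := card_defect hM hB hD
    have h2 := Subgroup.card_dvd_of_le hE
    rw [h8, h1] at h2
    exact (Nat.pow_dvd_pow_iff_le_right one_lt_two).1 (show 2 ^ 3 ∣ _ from h2)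
  refine ar (irrFin B) (fun χ => charDegree (χ : G → ℂ)) m (fun χ => blockHeight 2 B (χ : G → ℂ))
    (N := Nat.card G) (c := c) hG (fun χ hχ => h0 χ fun h => hχ (mem_irrFin.2 h))
    (fun χ hχ => ?_) (fun χ hχ => ⟨hd0 χ, ?_⟩) ?_ fun ρ d hd => ?_
  · have hχ' := mem_irrFin.1 hχ
    have h1 := hm χ
    rw [if_pos hχ'] at h1
    have h2 := hv χ hχ'
    rw [← h1, map_mul, (vM_natCast_eq_one_iff hM _).2 ho, one_mul] at h2
    have h3 : m χ ≠ 0 := fun h => by
      rw [h, Nat.cast_zero, map_zero] at h2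
      exact (pow_pos (vM_p_pos hM) _).ne (by exact_mod_cast h2)
    refine ⟨h3, ?_⟩
    rw [vM_natCast hM h3] at h2
    exact (vM_p_pow_inj hM).1 (by exact_mod_cast h2)
  · have h1 : c ≤ (charDegree (χ : G → ℂ)).factorization 2 := Nat.sInf_le ⟨χ, mem_irrFin.1 hχ, rfl⟩
    simp only [blockHeight, ← hc]
    omega
  · refine (pow_dvd_pow 2 (by omega : c + 2 ≤ (Nat.card G).factorization 2)).trans ?_
    rw [← vM_natCast_le_pow_iff hM, ← vM_natCast hM hG]
    have h1 := hI.one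
    push_cast
    simp only [hd1]
    rw [h1, map_mul]
    exact mul_le_of_le_one_right' (hvf 1)
  · refine hI.disc hM E h8 (fun u hu => hsq u (hE hu)) (fun u hu => hcomm u (hyD u (hE hu))) hn hvf
      hint (fun σ hσ => hgal σ (hσω σ hσ) fun χ hχ g => rat hM hB hD hsq hσ hχ g)
      (fun σ hσ χ hχ g => rat hM hB hD hsq hσ (by_contra fun h => hχ (h0 χ h)) g) (ρ := ρ) ?_
    simpa only [hd1] using hd
end Blk

end Cfsg.Lib.KKL
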